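import Mathlib

/-!
The quadratic form of a cyclotomic polynomial and an auxiliary prime.
-/

set_option autoImplicit false

namespace Cfsg.Agent.Lib.ZassSL25

open Polynomial Finset

/-- Gauss: four times the cyclotomic polynomial of a prime congruent to three modulo four is
represented by the form `Y² + qZ²` over the rationals. -/
theorem gauss_quadratic_form_aux {q : ℕ} [hq : Fact q.Prime] (hq4 : q % 4 = 3)
    (M : Type) [Field M] [CharZero M] [Algebra ℚ M] [IsCyclotomicExtension {q} ℚ M] :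
    ∃ Y Z : ℚ[X], 4 * (∑ i ∈ range q, X ^ i : ℚ[X]) = Y ^ 2 + C (q : ℚ) * Z ^ 2 := by
  classical
  haveI : NeZero q := ⟨hq.out.ne_zero⟩
  haveI : IsGalois ℚ M := IsCyclotomicExtension.isGalois {q} ℚ M
  haveI : FiniteDimensional ℚ M := IsCyclotomicExtension.finiteDimensional {q} ℚ M
  set ξ := IsCyclotomicExtension.zeta q ℚ M
  have hξ : IsPrimitiveRoot ξ q := IsCyclotomicExtension.zeta_spec q ℚ M
  set ψ : AddChar (ZMod q) M := AddChar.zmodChar q hξ.pow_eq_one
  have hψ : ψ.IsPrimitive := AddChar.zmodChar_primitive_of_primitive_root q hξ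
  have hψinj : ∀ a b : ZMod q, ψ a = ψ b → a = b := fun a b e => by
    rw [AddChar.zmodChar_apply, AddChar.zmodChar_apply] at e
    exact ZMod.val_injective q (hξ.pow_inj (ZMod.val_lt a) (ZMod.val_lt b) e)
  have hchar : ringChar (ZMod q) ≠ 2 := by rw [ZMod.ringChar_zmod_n]; omega
  set χ : MulChar (ZMod q) M := (quadraticChar (ZMod q)).ringHomComp (Int.castRingHom M)
  have hχ1 : χ ≠ 1 := fun e => quadraticChar_ne_one hchar
    ((MulChar.ringHomComp_eq_one_iff (f := Int.castRingHom M) (Int.cast_injective) (χ := quadraticChar (ZMod q))).1 e)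
  have hχ2 : χ.IsQuadratic := (quadraticChar_isQuadratic (ZMod q)).comp _
  set g := gaussSum χ ψ
  have hg : g ^ 2 = -(q : M) := by
    rw [gaussSum_sq hχ1 hχ2 hψ, ZMod.card]
    show ((quadraticChar (ZMod q) (-1) : ℤ) : M) * q = _
    rw [quadraticChar_neg_one hchar, ZMod.card, ZMod.χ₄_nat_three_mod_four hq4]
    push_cast; ring
  -- the two halves
  let P : ℤ → M[X] := fun c =>
    ∏ x ∈ (univ : Finset (ZMod q)).filter (fun x => quadraticChar (ZMod q) x = c), (X - C (ψ x))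
  have hprod : P 1 * P (-1) = cyclotomic q M := by
    rw [← Finset.prod_union (Finset.disjoint_filter.2 fun x _ h1 h2 => by rw [h1] at h2; norm_num at h2),
      cyclotomic_eq_prod_X_sub_primitiveRoots hξ]
    refine Finset.prod_bij (fun x _ => ψ x) ?_ (fun a _ b _ e => hψinj a b e) ?_ (fun _ _ => rfl)
    · intro x hx
      rw [mem_union, mem_filter, mem_filter] at hx
      have hx0 : x ≠ 0 := by rintro rfl; simp at hx
      rw [mem_primitiveRoots hq.out.pos, AddChar.zmodChar_apply]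
      exact hξ.pow_of_coprime _ ((hq.out.coprime_iff_not_dvd.2 fun h => hx0 (by
        have := Nat.eq_zero_of_dvd_of_lt h (ZMod.val_lt x)
        exact (ZMod.val_eq_zero x).1 this)).symm)
    · intro μ hμ
      rw [mem_primitiveRoots hq.out.pos] at hμ
      obtain ⟨i, hi, rfl⟩ := hξ.eq_pow_of_pow_eq_one hμ.pow_eq_one
      refine ⟨(i : ZMod q), ?_, AddChar.zmodChar_apply' hξ.pow_eq_one i⟩
      rw [mem_union, mem_filter, mem_filter]
      have hne : (i : ZMod q) ≠ 0 := fun e => by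
        rw [ZMod.natCast_eq_zero_iff] at e
        have h0 := Nat.eq_zero_of_dvd_of_lt e hi
        rw [h0, pow_zero] at hμ
        exact hq.out.ne_one (IsPrimitiveRoot.unique hμ IsPrimitiveRoot.one)
      rcases quadraticChar_dichotomy hne with h | h
      · exact Or.inl ⟨mem_univ _, h⟩
      · exact Or.inr ⟨mem_univ _, h⟩
  -- the action of the Galois group
  have hact : ∀ φ : M ≃ₐ[ℚ] M, ∃ ε : ℤ, (ε = 1 ∨ ε = -1) ∧
      φ g = (ε : M) * g ∧ ∀ c, (P c).map (φ : M →+* M) = P (c * ε) := by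
    intro φ
    set a : (ZMod q)ˣ := hξ.autToPow ℚ φ
    have hφ : ∀ x, φ (ψ x) = ψ ((a : ZMod q) * x) := fun x => by
      rw [AddChar.zmodChar_apply, map_pow, ← hξ.autToPow_spec ℚ φ, ← pow_mul,
        AddChar.zmodChar_apply, pow_eq_pow_mod _ hξ.pow_eq_one, ← ZMod.val_mul]
    refine ⟨quadraticChar (ZMod q) a, quadraticChar_dichotomy a.ne_zero, ?_, fun c => ?_⟩
    · have h1 : φ g = gaussSum χ (AddChar.mulShift ψ a) := by
        simp only [g, gaussSum, map_sum, map_mul, AddChar.mulShift_apply, hφ]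
        refine Finset.sum_congr rfl fun x _ => ?_
        congr 1
        exact map_intCast φ _
      have h2 := gaussSum_mulShift χ ψ a
      have hsq : χ (a : ZMod q) * χ (a : ZMod q) = 1 := by
        show ((quadraticChar (ZMod q) a : ℤ) : M) * ((quadraticChar (ZMod q) a : ℤ) : M) = 1
        rw [← Int.cast_mul, ← pow_two, quadraticChar_sq_one a.ne_zero, Int.cast_one]
      rw [h1]
      show _ = χ (a : ZMod q) * g
      rw [show g = χ a * gaussSum χ (AddChar.mulShift ψ a) from h2.symm, ← mul_assoc, hsq, one_mul]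
    · show Polynomial.map (φ : M →+* M) (∏ x ∈ _, (X - C (ψ x))) = _
      rw [Polynomial.map_prod]
      refine Finset.prod_nbij' (fun x => (a : ZMod q) * x) (fun y => ((a⁻¹ : (ZMod q)ˣ) : ZMod q) * y)
        ?_ ?_ ?_ ?_ ?_
      · intro x hx
        rw [mem_filter] at hx ⊢
        exact ⟨mem_univ _, by rw [map_mul, hx.2, mul_comm]⟩
      · intro y hy
        rw [mem_filter] at hy ⊢
        refine ⟨mem_univ _, ?_⟩
        rw [map_mul, hy.2, mul_comm c, ← mul_assoc, ← map_mul, Units.inv_mul, map_one, one_mul]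
      · intro x _; exact Units.inv_mul_cancel_left a x
      · intro y _; exact Units.mul_inv_cancel_left a y
      · intro x _
        rw [Polynomial.map_sub, Polynomial.map_X, Polynomial.map_C]
        exact congrArg (fun w => X - C w) (hφ x)
  have hfix : ∀ R : M[X], (∀ φ : M ≃ₐ[ℚ] M, R.map (φ : M →+* M) = R) → ∃ R₀ : ℚ[X], R₀.map (algebraMap ℚ M) = R := by
    intro R hR
    rw [← Polynomial.mem_lifts, Polynomial.lifts_iff_coeff_lifts]
    refine fun n => (IsGalois.mem_range_algebraMap_iff_fixed _).2 fun φ => ?_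
    conv_rhs => rw [← hR φ, Polynomial.coeff_map]
    rfl
  obtain ⟨Y, hY⟩ := hfix (P 1 + P (-1)) fun φ => by
    obtain ⟨ε, hε, -, hP⟩ := hact φ
    rcases hε with rfl | rfl <;> rw [Polynomial.map_add, hP, hP] <;> simp [add_comm]
  obtain ⟨Z, hZ⟩ := hfix ((P 1 - P (-1)) * C g) fun φ => by
    obtain ⟨ε, hε, hφg, hP⟩ := hact φ
    rw [Polynomial.map_mul, Polynomial.map_sub, Polynomial.map_C, hP, hP]
    rcases hε with rfl | rfl
    · simp [hφg]
    · simp [hφg]; ring
  refine ⟨Y, C ((q : ℚ)⁻¹) * Z, ?_⟩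
  apply Polynomial.map_injective (algebraMap ℚ M) (algebraMap ℚ M).injective
  rw [Polynomial.map_mul, ← cyclotomic_prime ℚ q, Polynomial.map_add, Polynomial.map_pow, Polynomial.map_mul,
    Polynomial.map_pow, Polynomial.map_mul, map_cyclotomic, hY, hZ, ← hprod, mul_pow, mul_pow, Polynomial.map_C, Polynomial.map_C, ← C_pow, ← C_pow,
    hg, map_inv₀, map_natCast]
  have hqM : (q : M) ≠ 0 := Nat.cast_ne_zero.2 hq.out.ne_zero
  have e : C ((q : M)) * C (((q : M)⁻¹) ^ 2) * C (-(q : M)) = -1 := by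
    rw [← C_mul, ← C_mul]
    rw [show (q : M) * ((q : M)⁻¹) ^ 2 * -(q : M) = -1 by field_simp, map_neg, map_one]
  simp only [Polynomial.map_ofNat]
  linear_combination -((P 1 - P (-1)) ^ 2) * e

/-- Gauss's identity over the rationals. -/
theorem gauss_quadratic_form {q : ℕ} [hq : Fact q.Prime] (hq4 : q % 4 = 3) :
    ∃ Y Z : ℚ[X], 4 * (∑ i ∈ range q, X ^ i : ℚ[X]) = Y ^ 2 + C (q : ℚ) * Z ^ 2 :=
  haveI : NeZero q := ⟨hq.out.ne_zero⟩
  haveI : NeZero (q : ℚ) := ⟨Nat.cast_ne_zero.2 hq.out.ne_zero⟩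
  @gauss_quadratic_form_aux q hq hq4 (CyclotomicField q ℚ) _ _ (CyclotomicField.algebra q ℚ)
    (CyclotomicField.isCyclotomicExtension q ℚ)

/-- Thue: a multiple `kq` with `k ≤ 5` is represented by `x² + 5y²` if `-5` is a square modulo `q`. -/
theorem exists_repr_five {q : ℕ} [hq : Fact q.Prime] (h : IsSquare (-5 : ZMod q)) :
    ∃ k : ℕ, ∃ x y : ℤ, 1 ≤ k ∧ k ≤ 5 ∧ (k : ℤ) * q = x ^ 2 + 5 * y ^ 2 := by
  obtain ⟨s, hs⟩ := h
  set n := Nat.sqrt q
  have hn2 : n * n < q := by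
    refine lt_of_le_of_ne (Nat.sqrt_le q) fun e => ?_
    exact (Nat.prime_iff.1 hq.out).irreducible.not_isSquare ⟨n, e.symm⟩
  have hlt : Fintype.card (ZMod q) < Fintype.card (Fin (n + 1) × Fin (n + 1)) := by
    rw [ZMod.card, Fintype.card_prod, Fintype.card_fin]
    exact Nat.lt_succ_sqrt q
  obtain ⟨⟨a, b⟩, ⟨c, d⟩, hne, he⟩ := Fintype.exists_ne_map_eq_of_card_lt
    (fun p : Fin (n + 1) × Fin (n + 1) => ((p.1 : ℕ) : ZMod q) - s * ((p.2 : ℕ) : ZMod q)) hlt
  set x : ℤ := (a : ℤ) - (c : ℤ) with hx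
  set y : ℤ := (b : ℤ) - (d : ℤ) with hy
  have hdvd : (q : ℤ) ∣ x ^ 2 + 5 * y ^ 2 := by
    rw [← ZMod.intCast_zmod_eq_zero_iff_dvd]
    have h1 : (x : ZMod q) = s * (y : ZMod q) := by
      rw [hx, hy]; push_cast
      simp only at he
      linear_combination he
    push_cast
    rw [h1, mul_pow, pow_two s, ← hs]
    ring
  obtain ⟨k, hk⟩ := hdvd
  have ha := a.isLt; have hb := b.isLt; have hc := c.isLt; have hd := d.isLt
  have hnn : ((n * n : ℕ) : ℤ) < q := by exact_mod_cast hn2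
  push_cast at hnn
  have hxb : x ^ 2 ≤ (n : ℤ) * n := by
    have h1 : -(n : ℤ) ≤ x := by omega
    have h2 : x ≤ n := by omega
    nlinarith
  have hyb : y ^ 2 ≤ (n : ℤ) * n := by
    have h1 : -(n : ℤ) ≤ y := by omega
    have h2 : y ≤ n := by omega
    nlinarith
  have hpos : 0 < x ^ 2 + 5 * y ^ 2 := by
    by_contra hle
    push Not at hle
    have hx0 : x = 0 := by nlinarith [sq_nonneg x, sq_nonneg y]
    have hy0 : y = 0 := by nlinarith [sq_nonneg x, sq_nonneg y]
    exact hne (by rw [Fin.ext (show (a : ℕ) = c by omega), Fin.ext (show (b : ℕ) = d by omega)])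
  have hq0 : (0 : ℤ) < q := by exact_mod_cast hq.out.pos
  have hk1 : 1 ≤ k := by nlinarith
  have hk5 : k ≤ 5 := by nlinarith
  refine ⟨k.toNat, x, y, by omega, by omega, ?_⟩
  rw [Int.toNat_of_nonneg (by omega), hk]; ring

theorem two_not_square_five : ¬ IsSquare (2 : ZMod 5) := by
  unfold IsSquare
  decide

/-- The auxiliary prime attached to an odd prime `r ≠ 5`. -/
theorem exists_aux_prime {r : ℕ} (hr : r.Prime) (hr2 : r ≠ 2) (hr5 : r ≠ 5) :
    ∃ q : ℕ, q.Prime ∧ q % 4 = 3 ∧ r ∣ q + 1 ∧ IsSquare (-5 : ZMod q) := by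
  have hcop : Nat.Coprime 20 r := by
    rw [Nat.coprime_comm, hr.coprime_iff_not_dvd]
    intro h
    have h' : r ∣ 2 ^ 2 * 5 := h
    rcases hr.dvd_mul.1 h' with e | e
    · exact hr2 ((Nat.prime_dvd_prime_iff_eq hr Nat.prime_two).1 (hr.dvd_of_dvd_pow e))
    · exact hr5 ((Nat.prime_dvd_prime_iff_eq hr (by norm_num)).1 e)
  obtain ⟨a, ha20, har⟩ := Nat.chineseRemainder hcop 7 (r - 1)
  have hr3 : 3 ≤ r := by have := hr.two_le; omega
  have hc : a.Coprime (20 * r) := by
    refine Nat.Coprime.mul_right ?_ ?_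
    · rw [Nat.coprime_iff_gcd_eq_one, ha20.gcd_eq]; rfl
    · rw [Nat.coprime_iff_gcd_eq_one, har.gcd_eq, Nat.gcd_comm, ← Nat.coprime_iff_gcd_eq_one,
        hr.coprime_iff_not_dvd]
      intro h
      have := Nat.le_of_dvd (by omega) h
      omega
  obtain ⟨q, hqgt, hq, hqa⟩ := Nat.forall_exists_prime_gt_and_modEq 20 (mul_ne_zero (by norm_num) hr.ne_zero) hc
  haveI := Fact.mk hq
  have h20 : q % 20 = 7 := ((hqa.of_dvd (dvd_mul_right 20 r)).trans ha20)
  refine ⟨q, hq, by omega, ?_, ?_⟩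
  · have h1 : q ≡ r - 1 [MOD r] := (hqa.of_dvd (dvd_mul_left r 20)).trans har
    have h2 := h1.add_right 1
    rw [show r - 1 + 1 = r by omega] at h2
    exact (Nat.modEq_zero_iff_dvd.1 (h2.trans (Nat.modEq_zero_iff_dvd.2 dvd_rfl)))
  · haveI : Fact (Nat.Prime 5) := ⟨by norm_num⟩
    have h5 : ¬ IsSquare ((5 : ℕ) : ZMod q) := by
      rw [← ZMod.exists_sq_eq_prime_iff_of_mod_four_eq_one (p := 5) (q := q) (by norm_num) (by omega)]
      rw [show ((q : ℕ) : ZMod 5) = 2 by
        rw [← ZMod.natCast_mod q 5, show q % 5 = 2 by omega]; rfl]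
      exact two_not_square_five
    have h1 : ¬ IsSquare (-1 : ZMod q) := fun h => ZMod.exists_sq_eq_neg_one_iff.1 h (by omega)
    have hne : (-5 : ZMod q) ≠ 0 := by
      rw [neg_ne_zero, show (5 : ZMod q) = ((5 : ℕ) : ZMod q) by norm_num, ne_eq, ZMod.natCast_eq_zero_iff]
      intro h
      have := Nat.le_of_dvd (by norm_num) h
      omega
    rw [← quadraticChar_one_iff_isSquare hne, show (-5 : ZMod q) = -1 * ((5 : ℕ) : ZMod q) by norm_num, map_mul,
      quadraticChar_neg_one_iff_not_isSquare.2 h1, quadraticChar_neg_one_iff_not_isSquare.2 h5]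
    norm_num

end Cfsg.Agent.Lib.ZassSL25
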