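import Mathlib
import Cfsg.Agent.Lib.ZassSL25.QuadCyclo

/-!
Dicyclic groups of order twenty inside division rings of characteristic zero.
-/

set_option autoImplicit false

namespace Cfsg.Agent.Lib.ZassSL25

open Polynomial Finset

variable {D : Type*} [DivisionRing D] [CharZero D]

/-- A quaternion subalgebra of a division ring admits no nontrivial zero of the sum of four squares. -/
theorem false_of_quaternion {i j a b c d : D} (hi : i * i = -1) (hj : j * j = -1) (hji : j * i = -(i * j))
    (ha : Commute a i) (hb : Commute b i) (hc : Commute c i) (hd : Commute d i)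
    (haj : Commute a j) (hbj : Commute b j) (hcj : Commute c j) (hdj : Commute d j)
    (hab : Commute a b) (hac : Commute a c) (had : Commute a d)
    (hbc : Commute b c) (hbd : Commute b d) (hcd : Commute c d)
    (h : a * a + b * b + c * c + d * d = 0) (hd0 : d ≠ 0) : False := by
  set k := i * j with hk
  have hik : i * k = -j := by rw [hk, ← mul_assoc, hi, neg_one_mul]
  have hki : k * i = j := by rw [hk, mul_assoc, hji, mul_neg, ← mul_assoc, hi, neg_one_mul, neg_neg]
  have hjk : j * k = i := by rw [hk, ← mul_assoc, hji, neg_mul, mul_assoc, hj, mul_neg_one, neg_neg]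
  have hkj : k * j = -i := by rw [hk, mul_assoc, hj, mul_neg_one]
  have hkk : k * k = -1 := by rw [hk, mul_assoc, ← hk, hjk, hi]
  have hmul : ∀ x y e f : D, Commute y e → x * e * (y * f) = x * y * (e * f) := fun x y e f hh =>
    Commute.mul_mul_mul_comm hh.symm x f
  have hbk : Commute b k := hb.mul_right hbj
  have hck : Commute c k := hc.mul_right hcj
  have hdk : Commute d k := hd.mul_right hdj
  set v := b * i + c * j + d * k
  have hv2 : v * v = -(b * b + c * c + d * d) := by
    simp only [v, mul_add, add_mul]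
    rw [hmul b b i i hb, hmul b c i j hc, hmul b d i k hd, hmul c b j i hbj, hmul c c j j hcj,
      hmul c d j k hdj, hmul d b k i hbk, hmul d c k j hck, hmul d d k k hdk]
    rw [hi, hj, hkk, hik, hki, hjk, hkj, hji, ← hk, hbc.eq, hbd.eq, hcd.eq]
    simp only [mul_neg, mul_one]
    abel
  have hva : Commute v a :=
    (((hab.symm.mul_left ha.symm).add_left (hac.symm.mul_left haj.symm))).add_left
      (had.symm.mul_left ((ha.mul_right haj)).symm)
  have hv2' : v * v = a * a := by
    rw [hv2, neg_eq_iff_add_eq_zero, ← h]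
    abel
  have hvi : Commute v i := by
    rcases hva.mul_self_eq_mul_self_iff.1 hv2' with e | e <;> rw [e]
    · exact ha
    · exact ha.neg_left
  have h1 : v * i = -b - c * k + d * j := by
    simp only [v, add_mul, mul_assoc]
    rw [hi, hji, hki]
    simp only [mul_neg, mul_one]
    abel
  have h2 : i * v = -b + c * k - d * j := by
    simp only [v, mul_add, ← mul_assoc]
    rw [← hb.eq, ← hc.eq, ← hd.eq, mul_assoc b, mul_assoc c, mul_assoc d, hi, hik, ← hk]
    simp only [mul_neg, mul_one]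
    abel
  have h3 : c * k = d * j := by
    have e := hvi.eq
    rw [h1, h2] at e
    have e2 : (2 : D) * (d * j - c * k) = 0 := by
      rw [two_mul]
      calc d * j - c * k + (d * j - c * k) = (-b - c * k + d * j) - (-b + c * k - d * j) := by abel
        _ = 0 := by rw [e, sub_self]
    have := (mul_eq_zero.1 e2).resolve_left two_ne_zero
    exact (sub_eq_zero.1 this).symm
  have h4 : d = c * i := by
    have := congrArg (· * j) h3
    simp only [mul_assoc, hkj, hj, mul_neg, mul_one, neg_inj] at this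
    exact this.symm
  have h5 : c * k = 0 := by
    have e := hdj.eq
    rw [h4, mul_assoc, ← mul_assoc j c, ← hcj.eq, mul_assoc c j i, hji, mul_neg, ← hk] at e
    have e2 : (2 : D) * (c * k) = 0 := by rw [two_mul]; exact eq_neg_iff_add_eq_zero.1 e
    exact (mul_eq_zero.1 e2).resolve_left two_ne_zero
  have hj0 : j ≠ 0 := fun e => by rw [e, mul_zero] at hj; exact neg_ne_zero.2 one_ne_zero hj.symm
  exact hd0 ((mul_eq_zero.1 (h3.symm.trans h5)).resolve_right hj0)

/-- The arithmetic of an element of order five inverted by an element of order four. -/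
theorem five_facts {t i : D} (ht : t ^ 5 = 1) (ht1 : t ≠ 1) (hit : SemiconjBy i t (t ^ 4)) :
    (t + t ^ 4) * (t + t ^ 4) + (t + t ^ 4) = 1 ∧ Commute (t + t ^ 4) i ∧
      (t - t ^ 4) * (t - t ^ 4) = -(t + t ^ 4) - 3 ∧ i * (t - t ^ 4) = -((t - t ^ 4) * i) := by
  have hsum : 1 + t + t ^ 2 + t ^ 3 + t ^ 4 = 0 := by
    have h1 : (t - 1) * (1 + t + t ^ 2 + t ^ 3 + t ^ 4) = 0 := by
      have e : (t - 1) * (1 + t + t ^ 2 + t ^ 3 + t ^ 4) = t ^ 5 - 1 := by noncomm_ring
      rw [e, ht, sub_self]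
    exact (mul_eq_zero.1 h1).resolve_left (sub_ne_zero.2 ht1)
  have hit4 : SemiconjBy i (t ^ 4) t := by
    have := hit.pow_right 4
    rwa [← pow_mul, show 4 * 4 = 5 * 3 + 1 from rfl, pow_add, pow_mul, ht, one_pow, one_mul, pow_one] at this
  have h8 : t ^ 8 = t ^ 3 := by rw [show 8 = 5 + 3 from rfl, pow_add, ht, one_mul]
  have hu : (t + t ^ 4) * (t + t ^ 4) = t ^ 2 + t ^ 3 + 2 := by
    have e : (t + t ^ 4) * (t + t ^ 4) = t ^ 2 + t ^ 8 + (t ^ 5 + t ^ 5) := by noncomm_ring
    rw [e, h8, ht, one_add_one_eq_two]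
  have hw : (t - t ^ 4) * (t - t ^ 4) = t ^ 2 + t ^ 3 - 2 := by
    have e : (t - t ^ 4) * (t - t ^ 4) = t ^ 2 + t ^ 8 - (t ^ 5 + t ^ 5) := by noncomm_ring
    rw [e, h8, ht, one_add_one_eq_two]
  refine ⟨?_, ?_, ?_, ?_⟩
  · rw [hu, show t ^ 2 + t ^ 3 + 2 + (t + t ^ 4) = 1 + t + t ^ 2 + t ^ 3 + t ^ 4 + 1 by
      rw [← one_add_one_eq_two (R := D)]; abel, hsum, zero_add]
  · show (t + t ^ 4) * i = i * (t + t ^ 4)
    rw [add_mul, mul_add, hit.eq, hit4.eq, add_comm]
  · rw [hw, ← sub_eq_zero, show t ^ 2 + t ^ 3 - 2 - (-(t + t ^ 4) - 3) = 1 + t + t ^ 2 + t ^ 3 + t ^ 4 by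
      rw [← two_add_one_eq_three (R := D), ← one_add_one_eq_two (R := D)]; abel, hsum]
  · rw [mul_sub, sub_mul, hit.eq, hit4.eq, neg_sub]

/-- No element of prime order `r ≠ 2, 5` centralises a dicyclic group of order twenty. -/
theorem no_commuting_prime {t i ζ : D} {r : ℕ} (hr : r.Prime) (hr2 : r ≠ 2) (hr5 : r ≠ 5)
    (ht : t ^ 5 = 1) (ht1 : t ≠ 1) (hi : i * i = -1) (hit : SemiconjBy i t (t ^ 4))
    (hζ : ζ ^ r = 1) (hζ1 : ζ ≠ 1) (hζt : Commute ζ t) (hζi : Commute ζ i) : False := by
  classical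
  obtain ⟨huu, hui, hww, hiw⟩ := five_facts ht ht1 hit
  set u := t + t ^ 4 with hu
  set w := t - t ^ 4 with hw
  set s := 2 * u + 1 with hs
  have hut : Commute u t := (Commute.refl t).add_left ((Commute.refl t).pow_left 4)
  have hst : Commute s t := ((Commute.ofNat_left 2 t).mul_left hut).add_left (Commute.one_left t)
  have hsi : Commute s i := ((Commute.ofNat_left 2 i).mul_left hui).add_left (Commute.one_left i)
  have hss : s * s = 5 := by
    rw [hs, show (2 * u + 1) * (2 * u + 1) = 4 * (u * u + u) + 1 by noncomm_ring, huu]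
    norm_num
  have hsw : Commute s w := hst.sub_right (hst.pow_right 4)
  -- the second quaternion generator
  set cc := 5 + s with hcc
  have hcct : Commute cc t := (Commute.ofNat_left 5 t).add_left hst
  have hcci : Commute cc i := (Commute.ofNat_left 5 i).add_left hsi
  have hcc0 : cc ≠ 0 := fun e => by
    have h2 : cc * (5 - s) = 20 := by
      rw [hcc, ← (Commute.ofNat_left 5 s).mul_self_sub_mul_self_eq, hss]; norm_num
    rw [e, zero_mul] at h2
    exact (by norm_num : (20 : D) ≠ 0) h2.symm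
  have hccw : cc = -(2 * (w * w)) := by
    rw [hcc, hs, hww, mul_sub, mul_neg, neg_sub, sub_neg_eq_add, add_left_comm,
      show (5 : D) + 1 = 2 * 3 by norm_num, add_comm]
  set al := 1 + s with hal
  have hali : Commute al i := (Commute.one_left i).add_left hsi
  have halw : Commute al w := (Commute.one_left w).add_left hsw
  set J := w * (2 - al * i) with hJ
  have hJJ : J * J = -(cc * cc) := by
    have e1 : (2 - al * i) * w = w * (2 + al * i) := by
      rw [sub_mul, mul_add, mul_assoc, hiw, mul_neg, ← mul_assoc, halw.eq, mul_assoc, (Commute.ofNat_left 2 w).eq,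
        sub_neg_eq_add]
    have e2 : (2 + al * i) * (2 - al * i) = 4 + al * al := by
      rw [← (Commute.ofNat_left 2 (al * i)).mul_self_sub_mul_self_eq, Commute.mul_mul_mul_comm hali.symm al i,
        hi, mul_neg_one, sub_neg_eq_add]
      norm_num
    calc J * J = w * ((2 - al * i) * w) * (2 - al * i) := by simp only [hJ, mul_assoc]
      _ = w * w * ((2 + al * i) * (2 - al * i)) := by rw [e1]; simp only [mul_assoc]
      _ = w * w * (2 * cc) := by
        rw [e2, hal, hcc, show (1 + s) * (1 + s) = 1 + (s + s) + s * s by noncomm_ring, hss]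
        rw [mul_add (2 : D), two_mul s, show (2 : D) * 5 = 4 + 1 + 5 by norm_num]
        congr 1; abel
      _ = -(cc * cc) := by
        rw [hccw]; noncomm_ring
  have hJi : J * i = -(i * J) := by
    rw [hJ, mul_assoc, show (2 - al * i) * i = i * (2 - al * i) by
      rw [sub_mul, mul_sub, mul_assoc, ← mul_assoc i, ← hali.eq, mul_assoc, (Commute.ofNat_left 2 i).eq],
      ← mul_assoc, ← mul_assoc, hiw, neg_mul, neg_neg]
  have hccJ : Commute cc J :=
    (hcct.sub_right (hcct.pow_right 4)).mul_right ((Commute.ofNat_right cc 2).sub_right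
      (((Commute.one_right cc).add_right ((Commute.ofNat_left 5 s).add_left (Commute.refl s))).mul_right hcci))
  set j := cc⁻¹ * J with hj
  have hjj : j * j = -1 := by
    rw [hj, hmul_inv hccJ, hJJ, mul_neg, neg_inj, mul_assoc, ← mul_assoc cc⁻¹ cc cc, inv_mul_cancel₀ hcc0,
      one_mul, inv_mul_cancel₀ hcc0]
  have hji : j * i = -(i * j) := by
    rw [hj, mul_assoc, hJi, mul_neg, ← mul_assoc, ← mul_assoc, (hcci.inv_left₀).eq]
    simp only [hJ, mul_assoc]
  -- the commutative subalgebra of coefficients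
  have hζs : Commute ζ s := ((Commute.ofNat_right ζ 2).mul_right (hζt.add_right (hζt.pow_right 4))).add_right
    (Commute.one_right ζ)
  set F := Algebra.adjoin ℚ ({s, ζ} : Set D)
  have hcommF : ∀ x ∈ ({s, ζ} : Set D), ∀ y ∈ ({s, ζ} : Set D), x * y = y * x := by
    rintro x (rfl | rfl) y (rfl | rfl)
    · rfl
    · exact hζs.symm.eq
    · exact hζs.eq
    · rfl
  letI : CommRing F := Algebra.adjoinCommRingOfComm ℚ hcommF
  have hFi : ∀ x ∈ F, Commute x i := fun x hx => by
    have hle : F ≤ Subalgebra.centralizer ℚ ({i} : Set D) := Algebra.adjoin_le (by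
      rintro y (rfl | rfl)
      · exact Subalgebra.mem_centralizer_iff ℚ |>.2 fun g hg => by rw [Set.mem_singleton_iff.1 hg]; exact hsi.symm.eq
      · exact Subalgebra.mem_centralizer_iff ℚ |>.2 fun g hg => by rw [Set.mem_singleton_iff.1 hg]; exact hζi.symm.eq)
    exact ((Subalgebra.mem_centralizer_iff ℚ).1 (hle hx) i rfl).symm
  have hFj : ∀ x ∈ F, Commute x j := fun x hx => by
    have hle : F ≤ Subalgebra.centralizer ℚ ({j} : Set D) := Algebra.adjoin_le (by
      have hsj : Commute s j := ((Commute.ofNat_right s 5).add_right (Commute.refl s)).inv_right₀.mul_right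
        (hsw.mul_right ((Commute.ofNat_right s 2).sub_right
          (((Commute.one_right s).add_right (Commute.refl s)).mul_right hsi)))
      have hζj : Commute ζ j := ((Commute.ofNat_right ζ 5).add_right hζs).inv_right₀.mul_right
        ((hζt.sub_right (hζt.pow_right 4)).mul_right ((Commute.ofNat_right ζ 2).sub_right
          (((Commute.one_right ζ).add_right hζs).mul_right hζi)))
      rintro y (rfl | rfl)
      · exact Subalgebra.mem_centralizer_iff ℚ |>.2 fun g hg => by rw [Set.mem_singleton_iff.1 hg]; exact hsj.symm.eq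
      · exact Subalgebra.mem_centralizer_iff ℚ |>.2 fun g hg => by rw [Set.mem_singleton_iff.1 hg]; exact hζj.symm.eq)
    exact ((Subalgebra.mem_centralizer_iff ℚ).1 (hle hx) j rfl).symm
  let S : F := ⟨s, Algebra.subset_adjoin (Or.inl rfl)⟩
  let Z : F := ⟨ζ, Algebra.subset_adjoin (Or.inr rfl)⟩
  have hS : S ^ 2 = 5 := Subtype.ext (by
    show s ^ 2 = 5
    rw [pow_two, hss])
  have hZr : Z ^ r = 1 := Subtype.ext (by show ζ ^ r = 1; exact hζ)
  -- the arithmetic
  obtain ⟨q, hq, hq4, hrq, hsq⟩ := exists_aux_prime hr hr2 hr5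
  haveI := Fact.mk hq
  obtain ⟨PY, PZ, hgauss⟩ := gauss_quadratic_form hq4
  obtain ⟨k, x, y, hk1, hk5, hkq⟩ := exists_repr_five hsq
  obtain ⟨A, B, hAB⟩ : ∃ A B : F, A ^ 2 + B ^ 2 = 4 * (k : F) := by
    interval_cases k
    · exact ⟨2, 0, by norm_num⟩
    · exact ⟨2, 2, by norm_num⟩
    · exact ⟨1 - S, 1 + S, by push_cast; linear_combination 2 * hS⟩
    · exact ⟨4, 0, by norm_num⟩
    · exact ⟨2 * S, 0, by push_cast; linear_combination 4 * hS⟩
  obtain ⟨n, hn⟩ := hr.odd_of_ne_two hr2
  obtain ⟨c, hc⟩ := hrq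
  set η : F := Z ^ n
  have hηZ : η ^ 2 * Z = 1 := by rw [← pow_mul, ← pow_succ, mul_comm, ← hn]; exact hZr
  have hsum : (∑ i ∈ range q, Z ^ i : F) = -η ^ 2 := by
    have h1 : (∑ i ∈ range q, Z ^ i : F) * (Z - 1) = -η ^ 2 * (Z - 1) := by
      have h2 : Z ^ q * Z = 1 := by rw [← pow_succ, hc, pow_mul, hZr, one_pow]
      have h3 : Z ^ q = η ^ 2 := by linear_combination (η ^ 2) * h2 - (Z ^ q) * hηZ
      rw [geom_sum_mul, h3]
      linear_combination hηZ
    have hval := congrArg Subtype.val h1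
    exact Subtype.ext (mul_right_cancel₀ (b := ((Z - 1 : F) : D))
      (show ζ - 1 ≠ 0 from sub_ne_zero.2 hζ1) hval)
  have hev : 4 * (-η ^ 2) = (aeval Z PY) ^ 2 + (q : F) * (aeval Z PZ) ^ 2 := by
    have h1 := congrArg (aeval Z) hgauss
    simp only [map_mul, map_add, map_pow, map_ofNat, map_sum, aeval_X, aeval_C, map_natCast, hsum] at h1
    exact h1
  have hkq' : (k : F) * (q : F) = (x : F) ^ 2 + 5 * (y : F) ^ 2 := by
    have h1 := congrArg (fun z : ℤ => (z : F)) hkq
    push_cast at h1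
    exact h1
  have hfour : (2 * (k : F) * aeval Z PY) ^ 2 + ((A * x - B * y * S) * aeval Z PZ) ^ 2 +
      ((A * y * S + B * x) * aeval Z PZ) ^ 2 + (4 * (k : F) * η) ^ 2 = 0 := by
    linear_combination (aeval Z PZ ^ 2 * (x ^ 2 + y ^ 2 * S ^ 2)) * hAB
      + (4 * k * aeval Z PZ ^ 2 * y ^ 2) * hS - (4 * k * aeval Z PZ ^ 2) * hkq' - (4 * (k : F) ^ 2) * hev
  have hval := congrArg Subtype.val hfour
  simp only [pow_two] at hval
  have hcF : ∀ p p' : F, Commute (p : D) (p' : D) := fun p p' => congrArg Subtype.val (mul_comm p p')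
  refine false_of_quaternion (a := ((2 * (k : F) * aeval Z PY : F) : D))
    (b := (((A * x - B * y * S) * aeval Z PZ : F) : D)) (c := (((A * y * S + B * x) * aeval Z PZ : F) : D))
    (d := ((4 * (k : F) * η : F) : D)) hi hjj hji (hFi _ (Subtype.mem _)) (hFi _ (Subtype.mem _))
    (hFi _ (Subtype.mem _)) (hFi _ (Subtype.mem _)) (hFj _ (Subtype.mem _)) (hFj _ (Subtype.mem _))
    (hFj _ (Subtype.mem _)) (hFj _ (Subtype.mem _)) (hcF _ _) (hcF _ _) (hcF _ _) (hcF _ _) (hcF _ _) (hcF _ _)
    hval ?_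
  have hζ0 : ζ ≠ 0 := fun e => by rw [e, zero_pow hr.ne_zero] at hζ; exact zero_ne_one hζ
  have hk0 : (k : D) ≠ 0 := Nat.cast_ne_zero.2 (by omega)
  show 4 * (k : D) * ζ ^ n ≠ 0
  exact mul_ne_zero (mul_ne_zero (by norm_num) hk0) (pow_ne_zero _ hζ0)
where
  hmul_inv {cc J : D} (h : Commute cc J) : cc⁻¹ * J * (cc⁻¹ * J) = cc⁻¹ * cc⁻¹ * (J * J) :=
    Commute.mul_mul_mul_comm h.inv_left₀.symm cc⁻¹ J

end Cfsg.Agent.Lib.ZassSL25
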