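import Mathlib
import Cfsg.Agent.Lib.ZassSL25.Structure

/-!
Consequences of the structure of a nonsolvable group with a fixed-point-free character.
-/

set_option autoImplicit false

namespace Cfsg.Agent.Lib.ZassSL25

open Subgroup

universe u

theorem card_sl_two_five : Nat.card (Matrix.SpecialLinearGroup (Fin 2) (ZMod 5)) = 120 := by
  haveI : Fact (Nat.Prime 5) := ⟨by norm_num⟩
  obtain ⟨C⟩ := nonempty_icoCover_sl
  exact C.card_eq

/-- An automorphism of the alternating group of degree five that is not inner twists a five-cycle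
into its square, up to an inner automorphism. -/
theorem exists_five_twist (σ : MulAut (alternatingGroup (Fin 5)))
    (hσ : σ ∉ (MulAut.conj : alternatingGroup (Fin 5) →* _).range) :
    ∃ q : alternatingGroup (Fin 5), q * σ Icosa.five * q⁻¹ = Icosa.five ^ 2 := by
  haveI := Icosa.finite_mulAut
  have hfix : ∀ p : Equiv.Perm (Fin 5), p * (Icosa.three : Equiv.Perm (Fin 5)) = Icosa.three * p →
      p * (Icosa.five : Equiv.Perm (Fin 5)) = Icosa.five * p → p = 1 := by decide +kernel
  let f : Equiv.Perm (Fin 5) →* MulAut (alternatingGroup (Fin 5)) := MulAut.conjNormal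
  have hinj : Function.Injective f := (injective_iff_map_eq_one f).2 fun p hp => by
    have hc : ∀ a : alternatingGroup (Fin 5), p * (a : Equiv.Perm (Fin 5)) = a * p := fun a => by
      have := congrArg Subtype.val (DFunLike.congr_fun hp a)
      rw [MulAut.conjNormal_apply] at this
      exact mul_inv_eq_iff_eq_mul.1 this
    exact hfix p (hc _) (hc _)
  have hsur := (hinj.bijective_of_nat_card_le (by
    rw [Nat.card_eq_fintype_card (α := Equiv.Perm (Fin 5)), Fintype.card_perm, Fintype.card_fin]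
    exact Icosa.card_mulAut_le.trans (by norm_num [Nat.factorial]))).2
  obtain ⟨p, rfl⟩ := hsur σ
  have hodd : Equiv.Perm.sign p = -1 := by
    rcases Int.units_eq_one_or (Equiv.Perm.sign p) with h | h
    · refine absurd ⟨⟨p, Equiv.Perm.mem_alternatingGroup.2 h⟩, ?_⟩ hσ
      refine MulEquiv.ext fun a => Subtype.ext ?_
      show _ = ((f p a : alternatingGroup (Fin 5)) : Equiv.Perm (Fin 5))
      rw [MulAut.conjNormal_apply]
      rfl
    · exact h
  have hall : ∀ p : Equiv.Perm (Fin 5), Equiv.Perm.sign p = -1 → ∃ q : alternatingGroup (Fin 5),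
      (q : Equiv.Perm (Fin 5)) * (p * (Icosa.five : Equiv.Perm (Fin 5)) * p⁻¹) * (q : Equiv.Perm (Fin 5))⁻¹ =
        (Icosa.five : Equiv.Perm (Fin 5)) * Icosa.five := by
    decide +kernel
  obtain ⟨q, hq⟩ := hall p hodd
  refine ⟨q, Subtype.ext ?_⟩
  rw [Subgroup.coe_mul, Subgroup.coe_mul, Subgroup.coe_inv, MulAut.conjNormal_apply, pow_two, Subgroup.coe_mul]
  exact hq

variable {G : Type u} [Group G] [Finite G] (D : NonsolvData G)

namespace NonsolvData

theorem card_S : Nat.card D.S = 120 := by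
  obtain ⟨e⟩ := D.iso
  rw [Nat.card_congr e.toEquiv, card_sl_two_five]

theorem card_sup : Nat.card ↥(D.S ⊔ D.M) = 120 * Nat.card D.M := by
  haveI := D.S_normal
  have e := relIndex_mul_relIndex ⊥ D.S (D.S ⊔ D.M) bot_le le_sup_left
  rw [relIndex_bot_left, relIndex_bot_left, sup_comm, Subgroup.relIndex_sup_right, ← inf_relIndex_right,
    D.disjoint, relIndex_bot_left, D.card_S] at e
  rw [sup_comm]
  exact e.symm

theorem card_eq : Nat.card G = 120 * Nat.card D.M ∨ Nat.card G = 2 * (120 * Nat.card D.M) := by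
  haveI := Icosa.finite_mulAut
  set I := (MulAut.conj : alternatingGroup (Fin 5) →* _).range
  have hcomap : D.S ⊔ D.M = I.comap D.act := Subgroup.ext fun g => (D.inner g).symm
  have hle : (D.S ⊔ D.M).index ≤ 2 := by
    rw [hcomap, Subgroup.index_comap]
    refine le_trans (Subgroup.relIndex_le_of_le_right le_top (by
      rw [Subgroup.relIndex_top_right]; exact Subgroup.index_ne_zero_of_finite)) ?_
    rw [Subgroup.relIndex_top_right]
    have h1 := I.card_mul_index
    rw [Icosa.card_inner] at h1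
    have h2 := Icosa.card_mulAut_le
    omega
  have h0 : (D.S ⊔ D.M).index ≠ 0 := Subgroup.index_ne_zero_of_finite
  have h := (D.S ⊔ D.M).card_mul_index
  rw [D.card_sup] at h
  rcases (show (D.S ⊔ D.M).index = 1 ∨ (D.S ⊔ D.M).index = 2 by omega) with e | e <;> rw [e] at h <;> omega

/-- Outside `S ⊔ M` some element squares an element of order five of `S`. -/
theorem exists_twist {x : G} (hx : x ∉ D.S ⊔ D.M) :
    ∃ t ∈ D.S, ∃ g : G, orderOf t = 5 ∧ g * t * g⁻¹ = t ^ 2 := by
  haveI := D.S_normal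
  haveI : Fact (Nat.Prime 5) := ⟨by norm_num⟩
  have hσ : D.act x ∉ (MulAut.conj : alternatingGroup (Fin 5) →* _).range := fun e => hx ((D.inner x).1 e)
  obtain ⟨q, hq⟩ := exists_five_twist _ hσ
  obtain ⟨gq, hgq⟩ := D.inner_le ⟨q, rfl⟩
  set g := gq * x
  have hg : D.act g Icosa.five = Icosa.five ^ 2 := by
    rw [map_mul, hgq, MulAut.mul_apply, MulAut.conj_apply, hq]
  -- lift the five-cycle to `S`
  have hmemI : ∀ a, ∃ s ∈ D.S, D.act s = MulAut.conj a := by
    intro a
    obtain ⟨w, hw⟩ := D.inner_le ⟨a, rfl⟩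
    have hwmem : w ∈ D.S ⊔ D.M := (D.inner w).1 ⟨a, hw.symm⟩
    haveI := D.M_normal
    obtain ⟨s, hs, m, hm, e⟩ := Subgroup.mem_sup_of_normal_left.1 hwmem
    refine ⟨s, hs, ?_⟩
    rw [← hw, ← e, map_mul, (D.mem_ker m).2 ⟨m, hm, Or.inl rfl⟩, mul_one]
  have hker : ∀ v ∈ D.S, D.act v = 1 → v ^ 2 = 1 := by
    intro v hv e
    obtain ⟨m, hm, he⟩ := (D.mem_ker v).1 e
    have hmS : m ∈ D.S := by
      rcases he with he | he
      · exact he ▸ hv
      · rw [eq_mul_inv_of_mul_eq he.symm]; exact mul_mem hv (inv_mem D.z_mem)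
    have hm1 : m = 1 := mem_bot.1 (D.disjoint ▸ ⟨hmS, hm⟩ : m ∈ (⊥ : Subgroup G))
    rcases he with he | he
    · rw [he, hm1, one_pow]
    · rw [he, hm1, one_mul, pow_two, D.z_sq]
  obtain ⟨t0, ht0, hat0⟩ := hmemI Icosa.five
  have hfive : Icosa.five ^ 5 = 1 := by decide
  have hfive1 : Icosa.five ≠ 1 := by decide
  set t := t0 ^ 6
  have ht : t ∈ D.S := pow_mem ht0 6
  have hat : D.act t = MulAut.conj Icosa.five := by
    rw [map_pow, hat0, ← map_pow, pow_succ, hfive, one_mul]
  have ht5 : t ^ 5 = 1 := by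
    have h2 := hker (t0 ^ 5) (pow_mem ht0 5) (by rw [map_pow, hat0, ← map_pow, hfive, map_one])
    rw [← pow_mul] at h2
    rw [← pow_mul, show 6 * 5 = 5 * 2 * 3 from rfl, pow_mul, h2, one_pow]
  have hordt : orderOf t = 5 := orderOf_eq_prime ht5 fun e => by
    rw [e, map_one] at hat
    have := DFunLike.congr_fun hat Icosa.three
    have h3 : Icosa.five * Icosa.three * Icosa.five⁻¹ ≠ Icosa.three := by decide
    exact h3 this.symm
  refine ⟨t, ht, g, hordt, ?_⟩
  set w := g * t * g⁻¹ * (t ^ 2)⁻¹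
  have hwS : w ∈ D.S := mul_mem (D.S_normal.conj_mem t ht g) (inv_mem (pow_mem ht 2))
  have hw2 : w ^ 2 = 1 := by
    refine hker w hwS ?_
    rw [map_mul, map_mul, map_mul, map_inv, map_inv, map_pow D.act t 2, hat, mul_inv_eq_one]
    refine MulEquiv.ext fun a => ?_
    rw [← map_pow, ← hg, MulAut.mul_apply, MulAut.mul_apply, MulAut.conj_apply, MulAut.conj_apply, map_mul,
      map_mul, map_inv, MulAut.apply_inv_self]
  have hcw : Commute w (t ^ 2) := by
    obtain ⟨m, hm, he⟩ := (D.mem_ker w).1 (by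
      rw [map_mul, map_mul, map_mul, map_inv, map_inv, map_pow D.act t 2, hat, mul_inv_eq_one]
      refine MulEquiv.ext fun a => ?_
      rw [← map_pow, ← hg, MulAut.mul_apply, MulAut.mul_apply, MulAut.conj_apply, MulAut.conj_apply, map_mul,
        map_mul, map_inv, MulAut.apply_inv_self])
    have hmc : Commute m (t ^ 2) := (D.commutes _ (pow_mem ht 2) m hm).symm
    rcases he with he | he <;> rw [he]
    · exact hmc
    · exact hmc.mul_left (D.z_comm _).symm
  have hgt : g * t * g⁻¹ = w * t ^ 2 := (inv_mul_cancel_right _ _).symm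
  have hw5 : w ^ 5 = 1 := by
    have := congrArg (· ^ 5) hgt
    simp only [conj_pow, ht5, mul_one, mul_inv_cancel, hcw.mul_pow, ← pow_mul] at this
    rw [mul_comm 2 5, pow_mul, ht5, one_pow, mul_one] at this
    exact this.symm
  have hw1 : w = 1 := by
    have h4 : w ^ 4 = 1 := by rw [show 4 = 2 * 2 from rfl, pow_mul, hw2, one_pow]
    rwa [pow_succ, h4, one_mul] at hw5
  rw [hgt, hw1, one_mul]

end NonsolvData

end Cfsg.Agent.Lib.ZassSL25
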